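import Mathlib
import Cfsg.Agent.Lib.Fold.Main
import Cfsg.Agent.Lib.Orth.Tri

/-!
# Maximal tori of the twisted groups
-/

set_option autoImplicit false

namespace CfsgLib.Fold

open CfsgLib.RGD CfsgLib.Twist CfsgLib.ChevAut CfsgLib.St CfsgLib.Chev CfsgLib.Weyl CfsgLib.Stein
  CfsgLib.Lang Cfsg.Lie

universe u

section
variable {ι κ B : Type} [Fintype κ] [DecidableEq κ] [Finite ι] {Φ : RootSys ι κ} {L G X : Type*} [Field L] [Group G]
  [Group X] {S : StSys Φ L G} {T : Sym Φ B} {θ : G →* G} {l : ι → L} {φ : L →+* L} {τ : (κ → Lˣ) →* G}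

theorem GF.selfcent (h : GF S T.ρ θ l φ) (hS : S.Nondeg) (hG : S.grp = ⊤) (hτ : S.IsTor τ) (hH : τ.range ≤ S.H)
    {q : ℕ} (hφ : ∀ t, φ t = t ^ q) (lang : ∀ a, ∃ z, a = z⁻¹ * θ z) (E : X →* G) (hE : Function.Injective E)
    (hX : E.range = fx θ) (L₀ : List κ) (y : κ → ℤ) {N : ℕ} (hN : N ≠ 0) {ζ : Lˣ} (hζ : IsPrimitiveRoot ζ N) (i : κ)
    (h1 : ∀ j, (N : ℤ) ∣ Φ.ip y (Φ.wprod L₀ (Φ.simple (T.π j))) - q * y j) (h2 : y i = 1)
    (h3 : ∀ c : κ → Lˣ, (∀ j, Φ.chr c (Φ.wprod L₀ (Φ.simple (T.π j))) = c j ^ q) → c i ^ N = 1 ∧ ∀ j, c j = c i ^ y j)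
    (h4 : ∀ r, ¬ (N : ℤ) ∣ Φ.ip y r) (h5 : ∀ v ∈ Φ.W, (∀ r, (N : ℤ) ∣ Φ.ip y (v r) - Φ.ip y r) → v = 1) :
    ∃ H : Subgroup X, IsCyclic H ∧ Nat.card H = N ∧ Subgroup.centralizer (H : Set X) = H := by
  obtain ⟨z, hz⟩ := lang (S.nprod L₀)
  have hz1 : ∀ a b : ℤ, ζ ^ a = ζ ^ b ↔ (N : ℤ) ∣ a - b := fun a b => by
    rw [← hζ.zpow_eq_one_iff_dvd, zpow_sub, mul_inv_eq_one]
  have hfix : ∀ c, z * τ c * z⁻¹ ∈ fx θ ↔ ∀ j, Φ.chr c (Φ.wprod L₀ (Φ.simple (T.π j))) = c j ^ q := fun c => by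
    rw [mem_fx, map_mul, map_mul, map_inv, ← eq_inv_mul_iff_mul_eq.1 hz, h.map_tau hS hτ hH, mul_inv_rev,
      ← mul_assoc, mul_left_inj, mul_assoc, mul_assoc, mul_right_inj, ← eq_inv_mul_iff_mul_eq,
      mul_inv_eq_iff_eq_mul, hτ.N_conj hS (S.nprod_mem_N _) (S.acts_nprod _), (hτ.inj hS).eq_iff, funext_iff,
      T.π.surjective.forall]
    simp [Units.ext_iff, hφ, eq_comm]
  obtain ⟨s, es⟩ : z * τ (fun j => ζ ^ y j) * z⁻¹ ∈ E.range := hX ▸ (hfix _).2 fun j => by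
    rw [RootSys.chr_zpow_ip, ← zpow_natCast, ← zpow_mul, hz1, mul_comm]; exact h1 j
  refine ⟨Subgroup.zpowers s, inferInstance, ?_, le_antisymm (fun g hg => ?_) (Subgroup.le_centralizer _)⟩
  · rw [Nat.card_zpowers, ← orderOf_injective _ hE, es, ← MulAut.conj_apply, MulEquiv.orderOf_eq,
      orderOf_injective _ (hτ.inj hS), orderOf_eq_iff hN.bot_lt]
    refine ⟨funext fun j => by rw [Pi.pow_apply, ← zpow_natCast, ← zpow_mul, mul_comm, zpow_mul]; simp [hζ.1],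
      fun k hk h0 e => hζ.pow_ne_one_of_pos_of_lt h0.ne' hk (by simpa [h2] using congrFun e i)⟩
  obtain ⟨u, hu, n, hn, v, hv, ha, hcv, u', hu', e2⟩ := hτ.bruhat_centralizer hS (c := fun j => ζ ^ y j)
    (g := z⁻¹ * E g * z) (hG ▸ trivial) (by
      have := congrArg E (hg _ (Subgroup.mem_zpowers _))
      rw [map_mul, map_mul, es] at this
      rw [← mul_right_inj z, ← mul_left_inj z⁻¹]
      simpa [mul_assoc] using this)
  have hK : Φ.Ker (fun j => ζ ^ y j) = ∅ := Set.eq_empty_of_forall_notMem fun r hr =>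
    h4 r ((hζ.zpow_eq_one_iff_dvd _).1 ((Φ.chr_zpow_ip ..).symm.trans hr.2))
  rw [hK, StSys.UU_empty, Subgroup.mem_bot] at hu
  rw [hK, Set.empty_inter, StSys.UU_empty, Subgroup.mem_bot] at hu'
  obtain rfl := h5 v hv fun r => by rw [← hz1, ← Φ.chr_zpow_ip, ← Φ.chr_zpow_ip, hcv]
  obtain ⟨c, rfl⟩ := hτ.H_le (hS.mem_H_of_acts_one hn ha)
  have e3 : E g = z * τ c * z⁻¹ := by rw [← one_mul (τ c), ← hu, ← mul_one (u * _), ← hu', ← e2]; group
  obtain ⟨h6, h7⟩ := h3 c ((hfix c).1 (by rw [← e3, ← hX]; exact ⟨g, rfl⟩))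
  have := NeZero.mk hN
  obtain ⟨k, -, hk⟩ := hζ.eq_pow_of_mem_rootsOfUnity ((mem_rootsOfUnity _ _).2 h6)
  refine ⟨k, hE ?_⟩
  rw [map_zpow, es, e3, conj_zpow, ← map_zpow]
  congr 3; funext j
  rw [h7, ← hk, Pi.pow_apply, ← zpow_natCast, ← zpow_mul, ← zpow_mul, mul_comm]

end

theorem exists_model_D4 {K L : Type u} [Field K] [Fintype K] [Field L] [IsAlgClosed L] (f : K →+* L) {q : ℕ}
    (hq : IsPrimePow q) (hK : Fintype.card K = q ^ 3) : ∃ (θ : chevD4.group L →* chevD4.group L) (φ : L →+* L)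
      (E : twistedD4 K q →* chevD4.group L), GF (chevSys rtOKD4 L) symD4.ρ θ (fun r => epsD4a r) φ ∧
      (∀ t, φ t = t ^ q) ∧ (∀ a, ∃ z, a = z⁻¹ * θ z) ∧ Function.Injective E ∧ E.range = fx θ := by
  obtain ⟨p, n, hp, hn, rfl⟩ := (isPrimePow_nat_iff q).1 hq
  have := Fact.mk hp
  have : CharP K p := charP_of_card_eq_prime_pow (hK.trans (pow_mul ..).symm)
  have : CharP L p := charP_of_injective_ringHom f.injective p
  obtain ⟨Φ, -, e2, -⟩ := ClAut.exists_frob (hK.trans (pow_mul ..).symm)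
  have hφ : ∀ t, ((Φ ^ n : K ≃+* K) : K →+* K) t = t ^ p ^ n := e2 n
  generalize Φ ^ n = σ at hφ
  obtain ⟨γ, h1, h2⟩ := grD_D4.exists_gs L
  obtain ⟨γ₀, h3, -⟩ := grD_D4.exists_gs K
  have h4 := h1.comp (gs_gm (iterateFrobenius_def (R := L) p n))
  have h5 : Gs symD4.π (fun _ => p ^ n) (endD4 (σ : K →+* K)) := fun i t => by
    simp [endD4_xG _ (simple_lt i.2), endD4_xG _ (neg_lt (simple_lt i.2)), rhoD4_simple i, ← hφ]
  simp only [mul_one] at h4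
  have h6 := h5.nat rtOKD4 h4 f
  have h7 : ∀ g, endD4 (σ : K →+* K) g = (γ₀ * fieldHom chevD4 K σ) g := fun g =>
    Gs.nat rtOKD4 (φ := γ₀.toMonoidHom.comp (groupMap chevD4 (σ : K →+* K))) (by simpa using h3.comp (gs_gm hφ)) h5 (RingHom.id K) g
  have h8 := eq_FixD4 hφ (frob3 hφ hK)
  have h9 : twistedD4 K (p ^ n) ≤ chevD4.group K := h8.le.trans ((twD4 _).Fix_le_grp.trans (stSys_grp _).le)
  have hm : chevD4 ∈ [chevG2, chevB2, chevD4, chevF4, chevE6, chevE7, chevE8] := by simp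
  refine ⟨_, _, (groupMap chevD4 f).comp (Subgroup.inclusion h9), by simpa using h2.comp (gf_gm rtOKD4 _),
    iterateFrobenius_def p n, lang_gs rtOKD4 hm (by
      simpa using HasGs.frob (fun K _ _ _ => (grD_D4.exists_gs K).elim fun γ h => ⟨_, h.1⟩ :
        HasGs.{u} chevD4 p symD4.π fun _ => 1) n) (n := n * 3) (by omega) grD_D4.{0}.pi (by simp [pow_mul]) h4,
    (gm_inj f).comp (Subgroup.inclusion_injective _), le_antisymm ?_ fun g hg => ?_⟩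
  · rintro _ ⟨g, rfl⟩
    exact (h6 _).trans (congrArg _ (Subtype.ext ((extend_apply _ _).symm.trans (h8.le g.2).2)))
  have hψ : ∀ t : L, iterateFrobenius L p (n * 3) t = t ^ Fintype.card K := fun t => by rw [hK, ← pow_mul]; rfl
  obtain ⟨α, hα, e⟩ := exists_ID rtOKD4 f hψ (a := g) ((h4.iterate_eq rtOKD4 grD_D4.{0}.pi (by simp [pow_mul])
    (iterateFrobenius_def p _) g).symm.trans (Function.iterate_fixed hg 3))
  suffices α ∈ Cfsg.Inn _ by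
    obtain ⟨x, rfl⟩ := this
    obtain rfl : g = groupMap chevD4 f x := inv_mul_eq_one.1 (eq_one_of_comm rtOKD4 f fun y => by
      have := e y
      rw [MulAut.conj_apply, map_mul, map_mul, map_inv, mul_inv_eq_iff_eq_mul] at this
      rw [mul_assoc, this]; group)
    exact ⟨⟨x, h8.ge ⟨(stSys_grp _).ge x.2, (extend_apply _ x.2).trans (congrArg _ (gm_inj f ((h6 x).symm.trans hg)))⟩⟩, rfl⟩
  have e1 : γ₀ * fieldHom chevD4 K σ * α = α * (γ₀ * fieldHom chevD4 K σ) := MulEquiv.ext fun x => gm_inj f (by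
    rw [MulAut.mul_apply, MulAut.mul_apply _ α, e, ← h7, ← h7, ← h6, ← h6, e, map_mul, map_mul, map_inv, mem_fx.1 hg])
  obtain ⟨x, c, rfl⟩ := (mem_ID _).1 hα
  have e3 := congrArg (QuotientGroup.mk' (Cfsg.Inn _)) ((h3.of_par.mul (par_groupEquiv σ)).mul_diagOf rtOKD4 c)
  have e4 := congrArg (QuotientGroup.mk' (Cfsg.Inn _)) e1
  have e5 : QuotientGroup.mk' (Cfsg.Inn _) (MulAut.conj x) = 1 := (QuotientGroup.eq_one_iff _).2 ⟨x, rfl⟩
  rw [map_mul, map_mul _ (MulAut.conj x), e5, one_mul, map_mul _ (_ * _), map_mul _ (MulAut.conj x), e5, one_mul] at e4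
  rw [map_mul, map_mul _ (diagOf _ _)] at e3
  obtain ⟨⟨a, ha⟩, b, hb⟩ := (Orth.dg4_mem_inn_iff _).1 (map_div (diagHom K rtOKD4) _ _ ▸
    QuotientGroup.eq_iff_div_mem.1 (mul_right_cancel (e3.symm.trans e4)))
  refine mul_mem ⟨x, rfl⟩ ((Orth.dg4_mem_inn_iff c).2 ?_)
  have e6 : symD4.π.symm (ndD4 2) = ndD4 0 ∧ symD4.π.symm (ndD4 3) = ndD4 2 ∧ symD4.π.symm (ndD4 0) = ndD4 3 := by
    decide +kernel
  change ((Units.map _ (c ((symD4.π * 1).symm (ndD4 2))) / c (ndD4 2) : Kˣ) : K) *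
    (Units.map _ (c ((symD4.π * 1).symm (ndD4 3))) / c (ndD4 3) : Kˣ) = _ at ha
  change ((Units.map _ (c ((symD4.π * 1).symm (ndD4 0))) / c (ndD4 0) : Kˣ) : K) *
    (Units.map _ (c ((symD4.π * 1).symm (ndD4 2))) / c (ndD4 2) : Kˣ) = _ at hb
  simp only [mul_one, e6, Units.val_div_eq_div_val, Units.coe_map, MonoidHom.coe_coe, RingHom.comp_apply,
    RingHom.id_apply, hφ] at ha hb
  change IsSquare ((c (ndD4 2) : K) * c (ndD4 3)) ∧ IsSquare ((c (ndD4 0) : K) * c (ndD4 2))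
  have := (c (ndD4 0)).ne_zero
  have := (c (ndD4 2)).ne_zero
  have := (c (ndD4 3)).ne_zero
  generalize (c (ndD4 0) : K) = u, (c (ndD4 2) : K) = v, (c (ndD4 3) : K) = w, p ^ n = q at *
  obtain ⟨k, rfl | rfl⟩ := q.even_or_odd'
  · exact ⟨⟨v * w * a / (u * v) ^ k, by field_simp at ha ⊢; linear_combination ha⟩, u * v * b / (w * u) ^ k, by
      field_simp at hb ⊢; linear_combination hb⟩
  · simp only [pow_succ] at ha hb
    exact ⟨⟨v * b / (w * u) ^ k, by field_simp at hb ⊢; linear_combination hb⟩, v * a * b / (u * v) ^ k / (w * u) ^ k, by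
      field_simp at ha hb ⊢; rw [← mul_right_inj' ‹w ≠ 0›]
      linear_combination (u ^ (2 * k) * w * w ^ (2 * k)) * ha + w * a ^ 2 * hb⟩

end CfsgLib.Fold
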